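import Cfsg.Agent.Lib.ToddCox.J3T.Main
import Cfsg.Agent.Lib.ToddCox.Final
set_option autoImplicit false
set_option maxRecDepth 100000
namespace Cfsg.Agent.Lib.ToddCox.J3C0

def Js : List ℕ := [nat_lit 0, nat_lit 1, nat_lit 2, nat_lit 3, nat_lit 4]
def Jp : List ℕ := [nat_lit 0, nat_lit 1, nat_lit 2, nat_lit 3]

abbrev gen : ℕ → PresentedGroup Cfsg.Agent.Lib.ToddCox.J3T.rels := genP Cfsg.Agent.Lib.ToddCox.J3T.rels Cfsg.Agent.Lib.ToddCox.J3T.LT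

theorem t8 : ∀ w ∈ Cfsg.Agent.Lib.ToddCox.J3T.Rb, ∀ a ∈ w, a ∈ Js ∨ ∃ b ∈ Js, Cfsg.Agent.Lib.ToddCox.J3T.inv b = a := by decide +kernel
theorem t9 : ∀ y ∈ Jp, y ∈ Js := by decide +kernel
theorem t10 : ∀ y ∈ Cfsg.Agent.Lib.ToddCox.J3T.Hl, y ∈ Jp := by decide +kernel
theorem t11 : ∀ y ∈ Js, y ∈ Cfsg.Agent.Lib.ToddCox.J3T.ys := by decide +kernel

theorem le : letSub gen Jp ≤ letSub gen Js := letSub_le (fun y hy => mem_letSub (t9 y hy))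

theorem step : 0 < ((letSub gen Jp).subgroupOf (letSub gen Js)).index ∧
    ((letSub gen Jp).subgroupOf (letSub gen Js)).index ≤ 6156 :=
  sub_index_le Cfsg.Agent.Lib.ToddCox.J3T.inv Cfsg.Agent.Lib.ToddCox.J3T.letters.genInv Js Jp (fun y hy => mem_letSub (t9 y hy)) Cfsg.Agent.Lib.ToddCox.J3T.Eo Cfsg.Agent.Lib.ToddCox.J3T.W Cfsg.Agent.Lib.ToddCox.J3T.isH (fun y hy => invOf_lt _ hy) Cfsg.Agent.Lib.ToddCox.J3T.Eo_lt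
    (genP_id (by decide +kernel)) Cfsg.Agent.Lib.ToddCox.J3T.Rb (fun w hw => Cfsg.Agent.Lib.ToddCox.J3T.letters.word (Cfsg.Agent.Lib.ToddCox.J3T.t3 w hw))
    (fun w hw a ha => mem_letSub_inv Cfsg.Agent.Lib.ToddCox.J3T.letters.genInv (t8 w hw a ha)) Cfsg.Agent.Lib.ToddCox.J3T.nW Cfsg.Agent.Lib.ToddCox.J3T.W_ge Cfsg.Agent.Lib.ToddCox.J3T.sp Cfsg.Agent.Lib.ToddCox.J3T.words
    (fun y h => t10 y (List.elem_iff.mp h)) Cfsg.Agent.Lib.ToddCox.J3T.defs Cfsg.Agent.Lib.ToddCox.J3T.covered (by decide) Cfsg.Agent.Lib.ToddCox.J3T.cF Cfsg.Agent.Lib.ToddCox.J3T.cF_zero Cfsg.Agent.Lib.ToddCox.J3T.cF_lt Cfsg.Agent.Lib.ToddCox.J3T.ys t11 Cfsg.Agent.Lib.ToddCox.J3T.links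

end Cfsg.Agent.Lib.ToddCox.J3C0
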